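import Cfsg.Agent.PQ.G4.TwP

/-!
# G4, twisted by a character of the Siegel parabolic subgroup
-/

set_option autoImplicit false
set_option linter.unusedSectionVars false

namespace Cfsg.Agent.PQ.G4

open Cfsg Module Cfsg.Agent.PQ.Mk

variable {o o' : Bool} {F X Y Y' : Type} [Field F] [AddCommGroup X] [Module F X] [AddCommGroup Y] [Module F Y]
  [AddCommGroup Y'] [Module F Y'] [FiniteDimensional F X]

/-- the weighted number of fixed Lagrangian subspaces -/
noncomputable def wLag (Φ : Fm o F X) (w : Φ.G → Submodule F X → ℂ) (g : Φ.G) : ℂ :=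
  ∑ᶠ L ∈ {L | IsLag Φ L ∧ L.map (g.1 : X →ₗ[F] X) = L}, w g L

open Classical in
theorem sum_fixed (Φ : Fm o F X) [Fintype (LagT Φ)] (w : Φ.G → Submodule F X → ℂ) (g : Φ.G) :
    ∑ x : LagT Φ with g • x = x, w g x.1 = wLag Φ w g := by
  rw [wLag, ← finsum_mem_coe_finset]
  exact finsum_mem_eq_of_bijOn (fun x : LagT Φ => x.1) ⟨fun x hx => ⟨x.2, lag_smul_iff.1 (Finset.mem_filter.1 hx).2⟩,
    fun _ _ _ _ h => Subtype.ext h, fun L hL => ⟨⟨L, hL.1⟩, Finset.mem_filter.2 ⟨Finset.mem_univ _, lag_smul_iff.2 hL.2⟩, rfl⟩⟩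
    fun _ _ => rfl

namespace Pt

variable {ψ : AddChar F ℂ} {Φ : Fm o F X} {Ψ : Fm o' F Y} {Ψ' : Fm o' F Y'} {N : ℕ} {fr : Fr Φ N} {wt : Φ.G → ℂ}
  {E M E' M' : Type}
  [AddCommGroup E] [Module F E] [AddCommGroup M] [Module ℂ M] [AddCommGroup E'] [Module F E'] [AddCommGroup M'] [Module ℂ M']
  (P : Pt ψ Φ Ψ fr wt E M)

/-- the representation on the invariants of the small group -/
noncomputable def rp : Representation ℂ Φ.G (Eig P.C 1) := eigRep P.A P.C P.comm 1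

/-- the theta lift of the principal character -/
noncomputable def R [Finite Y] (g : Φ.G) : ℂ := (Fintype.card Ψ.G : ℂ)⁻¹ * ∑ h, LinearMap.trace ℂ M (P.A g * P.C h)

theorem rp_character [Finite Y] [FiniteDimensional ℂ M] (g : Φ.G) : P.rp.character g = P.R g := by
  rw [rp, eig_character, R]
  simp only [MonoidHom.one_apply, Units.val_one, one_mul]

/-- the generating vector -/
def w0 : Eig P.C 1 := ⟨P.v0, fun h => by rw [P.C_v0, MonoidHom.one_apply, Units.val_one, one_smul]⟩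

theorem w0_mem : P.w0 ∈ FxT P.rp (Pr.x0 fr) wt := fun g hg => Subtype.ext (P.A_v0 g (lag_smul_iff.1 hg))

include P in
theorem wt_mul (g h : Φ.G) (hg : g • Pr.x0 fr = Pr.x0 fr) (hh : h • Pr.x0 fr = Pr.x0 fr) : wt (g * h) = wt g * wt h := by
  have h1 := P.A_v0 (g * h) (lag_smul_iff.1 (show (g * h) • Pr.x0 fr = Pr.x0 fr by rw [mul_smul, hh, hg]))
  rw [map_mul, Module.End.mul_apply, P.A_v0 h (lag_smul_iff.1 hh), map_smul, P.A_v0 g (lag_smul_iff.1 hg), smul_smul,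
    mul_comm] at h1
  exact (smul_left_injective ℂ P.v0_ne h1).symm

variable [Finite Y] [FiniteDimensional F Y]

theorem span_w0 (hψ : ψ ≠ 1) : Submodule.span ℂ (Set.range fun g => P.rp g P.w0) = ⊤ := by
  have := finHom (F := F) (Y := Y) N
  have := Fintype.ofFinite ((Fin N → F) →ₗ[F] Y)
  apply Submodule.map_injective_of_injective (Eig P.C 1).injective_subtype
  rw [Submodule.map_subtype_top]
  refine le_antisymm (Submodule.map_subtype_le _ _) ((P.eig_le_span hψ).trans (Submodule.span_le.2 ?_))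
  rintro _ ⟨g, rfl⟩
  exact ⟨P.rp g P.w0, Submodule.subset_span ⟨g, rfl⟩, rfl⟩

theorem le_fx [FiniteDimensional ℂ M] (hψ : ψ ≠ 1) {j : ℕ}
    (hj : ∀ k < j, ∃ z : (Fin N → F) →ₗ[F] Y, TS Ψ z ∧ finrank F (LinearMap.range z) = k) :
    j ≤ finrank ℂ (FxT P.rp (Pr.x0 fr) wt) := by
  classical
  have := finHom (F := F) (Y := Y) N
  have := Fintype.ofFinite ((Fin N → F) →ₗ[F] Y)
  let f : ℕ → ((Fin N → F) →ₗ[F] Y) → ℂ := fun k z => if TS Ψ z ∧ finrank F (LinearMap.range z) = k then 1 else 0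
  have key : ∀ (c : ℂ) (T : Module.End ℂ M) (π : Equiv.Perm ((Fin N → F) →ₗ[F] Y)),
      (∀ z, TS Ψ z → T (P.ep z) = c • P.ep (π z)) →
      (∀ z, TS Ψ (π z) ↔ TS Ψ z) → (∀ z, finrank F (LinearMap.range (π z)) = finrank F (LinearMap.range z)) →
      ∀ k, T (∑ z, f k z • P.ep z) = c • ∑ z, f k z • P.ep z := by
    intro c T π h1 h2 h3 k
    rw [map_sum, ← Equiv.sum_comp π fun z => f k z • P.ep z, Finset.smul_sum]
    refine Finset.sum_congr rfl fun z _ => ?_
    simp only [f, h2, h3, map_smul]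
    split_ifs with h
    · rw [h1 z h.1, smul_comm]
    · rw [zero_smul, zero_smul, smul_zero]
  let w : Fin j → FxT P.rp (Pr.x0 fr) wt := fun k => ⟨⟨∑ z, f k z • P.ep z, fun h => by
      rw [MonoidHom.one_apply, Units.val_one]
      refine key 1 _ (lcomp h.1) (fun z _ => by rw [one_smul]; exact P.C_ep h z) (fun z => ?_) (fun z => ?_) k
      · rw [ts_iff, ts_iff, ← fm_G h z]
        rfl
      · exact (congrArg (fun S : Submodule F Y => finrank F S) (LinearMap.range_comp z _)).trans (h.1.finrank_map_eq _)⟩,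
    fun g hg => Subtype.ext (by
      show P.A g (∑ z, f k z • P.ep z) = wt g • ∑ z, f k z • P.ep z
      obtain ⟨a, ha⟩ := P.A_ts g (lag_smul_iff.1 hg)
      refine key _ _ (rcomp a) ha (fun z => ⟨fun h => ?_, fun h => h.comp _⟩) (fun z => ?_) k
      · rw [← (rcomp a).symm_apply_apply z]
        exact h.comp _
      · exact congrArg (fun S : Submodule F Y => finrank F S) (LinearMap.range_comp_of_range_eq_top z a.range))⟩
  have hw : LinearIndependent ℂ w := by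
    rw [Fintype.linearIndependent_iff]
    intro c hc k
    have h1 : ∑ k, c k • ∑ z, f k z • P.ep z = 0 := by
      have := congrArg (fun v : FxT P.rp (Pr.x0 fr) wt => (v.1 : M)) hc
      simpa only [Submodule.coe_sum, Submodule.coe_smul, Submodule.coe_zero] using this
    have h2 : ∑ z, (∑ k : Fin j, c k * f k z) • P.ep z = ∑ z, (0 : ℂ) • P.ep z := by
      simp only [Finset.smul_sum, smul_smul] at h1
      rw [Finset.sum_comm] at h1
      simp only [Finset.sum_smul, h1, zero_smul, Finset.sum_const_zero]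
    obtain ⟨z, hz, hz'⟩ := hj k k.2
    have h3 := congrFun (P.coef_eq hψ h2) z
    rw [Finset.sum_eq_single k (fun k' _ hk' => by
      rw [show f k' z = 0 from if_neg fun h => hk' (Fin.ext (h.2.symm.trans hz')), mul_zero])
      (fun h => absurd (Finset.mem_univ _) h), show f k z = 1 from if_pos ⟨hz, hz'⟩, mul_one] at h3
    exact h3
  simpa using hw.fintype_card_le_finrank

theorem le_fx' [FiniteDimensional ℂ M] (hψ : ψ ≠ 1) {T : Submodule F Y}
    (hB : ∀ x ∈ T, ∀ y ∈ T, Ψ.B x y = 0) (hQ : ∀ x ∈ T, Ψ.Q x = 0) :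
    min N (finrank F T) + 1 ≤ finrank ℂ (FxT P.rp (Pr.x0 fr) wt) :=
  P.le_fx hψ fun k hk => exists_rank hB hQ (by omega) (by omega)

/-- a linear character which is not principal on any point stabilizer does not occur -/
theorem eigC_bot (hψ : ψ ≠ 1) (s : Ψ.G →* ℂˣ)
    (h : ∀ z : (Fin N → F) →ₗ[F] Y, ∃ k : Ψ.G, (∀ a, k.1 (z a) = z a) ∧ s k ≠ 1) : Eig P.C s = ⊥ := by
  have := finHom (F := F) (Y := Y) N
  have := Fintype.ofFinite ((Fin N → F) →ₗ[F] Y)
  rw [eq_bot_iff]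
  intro v hv
  obtain ⟨f, rfl⟩ := P.exists_coef hψ v
  refine (Submodule.mem_bot ℂ).2 (Finset.sum_eq_zero fun z _ => ?_)
  obtain ⟨k, h1, h2⟩ := h z
  have h3 := hv k
  rw [Finset.smul_sum] at h3
  simp only [smul_smul] at h3
  have h4 := P.coef_mono hψ (lcomp k.1) (fun _ => 1) (fun z _ => by rw [one_smul]; exact P.C_ep k z) h3 z
  rw [show lcomp k.1 z = z from LinearMap.ext h1] at h4
  have h5 : f z = 0 := by
    by_contra h0
    exact h2 (Units.ext (mul_right_cancel₀ h0 h4))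
  rw [h5, zero_smul]

/-- the sign character of the small group does not occur if the small space is big -/
theorem eig_sgn {Ψ : Fm true F Y} (P : Pt ψ Φ Ψ fr wt E M) (hψ : ψ ≠ 1) (hN : 2 * N < finrank F Y) : Eig P.C (sgn Ψ) = ⊥ :=
  P.eigC_bot hψ _ fun z => by
    have h1 := z.finrank_range_le
    rw [finrank_fintype_fun_eq_card, Fintype.card_fin] at h1
    obtain ⟨g, h2, h3⟩ := exists_refl_fix Ψ (LinearMap.range z) (by omega)
    exact ⟨g, fun a => h2 _ ⟨a, rfl⟩, h3⟩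

end Pt

variable {ψ : AddChar F ℂ} {Φ : Fm o F X} {Ψ : Fm o' F Y} {Ψ' : Fm o' F Y'} {N : ℕ} {fr : Fr Φ N} {wt : Φ.G → ℂ}
  {E M E' M' : Type}
  [AddCommGroup E] [Module F E] [AddCommGroup M] [Module ℂ M] [AddCommGroup E'] [Module F E'] [AddCommGroup M'] [Module ℂ M']
  [Finite X] [Finite Y] [Finite Y'] [FiniteDimensional F Y] [FiniteDimensional F Y'] [FiniteDimensional ℂ M]
  [FiniteDimensional ℂ M'] {w : Φ.G → Submodule F X → ℂ}

/-- **twisted G4, two terms** -/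
theorem gt_two (hψ : ψ ≠ 1) (P : Pt ψ Φ Ψ fr wt E M) (P' : Pt ψ Φ Ψ' fr wt E' M')
    (hw : ∀ g y : Φ.G, g • y • Pr.x0 fr = y • Pr.x0 fr → w g (y • Pr.x0 fr).1 = wt (y⁻¹ * (g * y)))
    {T : Submodule F Y} (hB : ∀ x ∈ T, ∀ y ∈ T, Ψ.B x y = 0) (hQ : ∀ x ∈ T, Ψ.Q x = 0)
    {T' : Submodule F Y'} (hB' : ∀ x ∈ T', ∀ y ∈ T', Ψ'.B x y = 0) (hQ' : ∀ x ∈ T', Ψ'.Q x = 0)
    (hN : N ≤ finrank F T + finrank F T' + 1)
    (ho : ∑ g, P.R g * starRingEnd ℂ (P'.R g) = 0) (g : Φ.G) : P.R g + P'.R g = wLag Φ w g := by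
  have := finLag Φ
  have := Fintype.ofFinite (LagT Φ)
  have := lag_trans Φ
  have h1 := P.le_fx' hψ hB hQ
  have h2 := P'.le_fx' hψ hB' hQ'
  have h := coreT P.rp P'.rp (Pr.x0 fr) wt (P.wt_one 1 fun _ => rfl) P.wt_mul P.w0_mem (P.span_w0 hψ) P'.w0_mem (P'.span_w0 hψ)
    (pos fr) (pos_spec fr) (by rw [Fintype.card_fin]; omega) (by
      rw [classInner]
      simp only [Pt.rp_character, ho, mul_zero]) (fun g x => w g x.1) hw g
  rwa [Pt.rp_character, Pt.rp_character, sum_fixed] at h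

/-- **twisted G4, one term** -/
theorem gt_one (hψ : ψ ≠ 1) (P : Pt ψ Φ Ψ fr wt E M)
    (hw : ∀ g y : Φ.G, g • y • Pr.x0 fr = y • Pr.x0 fr → w g (y • Pr.x0 fr).1 = wt (y⁻¹ * (g * y)))
    {T : Submodule F Y} (hB : ∀ x ∈ T, ∀ y ∈ T, Ψ.B x y = 0) (hQ : ∀ x ∈ T, Ψ.Q x = 0) (hN : N ≤ finrank F T) (g : Φ.G) :
    P.R g = wLag Φ w g := by
  have := finLag Φ
  have := Fintype.ofFinite (LagT Φ)
  have := lag_trans Φ
  have h1 := P.le_fx' hψ hB hQ
  have h0 : ∀ g, (Representation.trivial ℂ Φ.G (Fin 0 → ℂ)).character g = 0 := fun g => by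
    rw [Representation.character, Subsingleton.elim (Representation.trivial ℂ Φ.G (Fin 0 → ℂ) g) 0, map_zero]
  have h := coreT P.rp (Representation.trivial ℂ Φ.G (Fin 0 → ℂ)) (Pr.x0 fr) wt (P.wt_one 1 fun _ => rfl) P.wt_mul P.w0_mem
    (P.span_w0 hψ) (v' := 0) (Submodule.zero_mem _) (Subsingleton.elim _ _) (pos fr) (pos_spec fr)
    (by rw [Fintype.card_fin]; omega) (by
      rw [classInner]
      simp only [h0, map_zero, mul_zero, Finset.sum_const_zero]) (fun g x => w g x.1) hw g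
  rwa [Pt.rp_character, h0, add_zero, sum_fixed] at h

end Cfsg.Agent.PQ.G4
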