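import Cfsg.Agent.PQ.G4.Op
import Cfsg.Agent.PQ.G4.TwM
import Cfsg.Agent.PQ.Wo.Sum
import Cfsg.Agent.PQ.Mk.TwA
import Cfsg.Agent.H181.StdBasis

/-!
# (G4), (G5) for orthogonal spaces of odd dimension, `q` odd
-/

set_option autoImplicit false
set_option linter.unusedSectionVars false

namespace Cfsg.Agent.PQ.G4

open Module TensorProduct Cfsg Cfsg.Agent.PQ.Mk Cfsg.Agent.PQ.Wl Cfsg.Agent.OddOrderCharacters.VChar
open LinearMap (BilinForm trace)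

variable {F V V' W W' : Type} [Field F] [AddCommGroup V] [Module F V] [AddCommGroup V'] [Module F V'] [AddCommGroup W]
  [Module F W] [AddCommGroup W'] [Module F W'] {ψ : AddChar F ℂ} {χ : MulChar F ℂ}

/-- the Witt index in odd dimension -/
theorem ts_odd [Finite F] [FiniteDimensional F W] (Ψ : Fm true F W) (hW : Odd (finrank F W)) :
    ∃ T : Submodule F W, (∀ x ∈ T, Ψ.Q x = 0) ∧ 2 * finrank F T + 1 = finrank F W := by
  obtain ⟨T, h2, h3⟩ := set_has_maximal_iff_noetherian.2 (inferInstance : IsNoetherian F W)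
    {L | ∀ x ∈ L, Ψ.Q x = 0} ⟨⊥, fun x hx => by rw [(Submodule.mem_bot F).1 hx, map_zero]⟩
  refine ⟨T, h2, ?_⟩
  have h4 : ∀ v ∈ Ψ.B.orthogonal T, Ψ.Q v = 0 → v ∈ T := fun v hv hq => by_contra fun h4 => h3 (T ⊔ F ∙ v) (fun x hx => by
    obtain ⟨a, ha, _, h5, rfl⟩ := Submodule.mem_sup.1 hx
    obtain ⟨s, rfl⟩ := Submodule.mem_span_singleton.1 h5
    have e1 : Ψ.B a v = 0 := hv a ha
    rw [Q_add, Q_smul, h2 a ha, hq, map_smul, e1]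
    simp) (Submodule.lt_sup_iff_notMem.2 h4)
  have h5 : T ≤ Ψ.B.orthogonal T := fun y hy n hn => B_of_Q Ψ h2 n hn y hy
  have h6 := LinearMap.BilinForm.finrank_orthogonal Ψ.nd T
  have h7 := Submodule.finrank_mono h5
  have h8 := T.finrank_le
  obtain ⟨U, hU⟩ := (T.comap (Ψ.B.orthogonal T).subtype).exists_isCompl
  have h9 := Submodule.finrank_add_eq_of_isCompl hU
  rw [(Submodule.comapSubtypeEquivOfLe h5).finrank_eq] at h9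
  obtain ⟨m, hm⟩ := hW
  by_contra h0
  obtain ⟨v, hv, hq⟩ := H181.StdBasis.exists_singular (Ψ.Q.comp ((Ψ.B.orthogonal T).subtype ∘ₗ U.subtype)) (by omega)
  exact hv (Subtype.ext (Submodule.disjoint_def.1 hU.disjoint _ (h4 _ v.1.2 hq) v.2))

/-- the weight of a subspace -/
noncomputable def wd {o : Bool} (χ : MulChar F ℂ) (Φ : Fm o F V) (g : Φ.G) (L : Submodule F V) : ℂ :=
  χ (dt (g.1 : V →ₗ[F] V) L)

theorem wd_hw {o : Bool} [FiniteDimensional F V] {Φ : Fm o F V} {N : ℕ} (fr : Fr Φ N) (g y : Φ.G)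
    (h : g • y • Pr.x0 fr = y • Pr.x0 fr) :
    wd χ Φ g (y • Pr.x0 fr).1 = wd χ Φ (y⁻¹ * (g * y)) (LinearMap.range fr.lam) := by
  have h1 : (y⁻¹ * (g * y)) • Pr.x0 fr = Pr.x0 fr := by rw [mul_smul, mul_smul, h, inv_smul_smul]
  exact congrArg χ (dt_inj (y.1 : V →ₗ[F] V) (fun x hx => mem_of_map (lag_smul_iff.1 h1) hx)
    (fun x _ => y.1.apply_symm_apply _) fun x _ hx => y.1.map_eq_zero_iff.1 hx).symm

theorem wLag_pr {o : Bool} [Finite F] [Finite V] [Finite V'] {Φ : Fm o F V} {Φ' : Fm o F V'} (g : Φ.G) (g' : Φ'.G) {a b : ℕ}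
    (ha : finrank F V < a) (hb : finrank F V' < b) :
    wLag (dbl Φ Φ') (wd χ _) (pr g g') = ∑ i ∈ Finset.range a, ∑ j ∈ Finset.range b, Kx χ Φ Φ' i j g g' := by
  classical
  have : Finite (Submodule F (V × V')) :=
    Finite.of_injective (fun L : Submodule F (V × V') => (L : Set (V × V'))) SetLike.coe_injective
  have := Fintype.ofFinite (Submodule F (V × V'))
  simp only [Kx, sum_cor]
  rw [← Finset.sum_product', Finset.sum_comm, wLag, finsum_eq_sum_of_fintype]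
  refine Finset.sum_congr rfl fun Λ _ => ?_
  rw [finsum_eq_if, Finset.sum_eq_single (finrank F (lf Λ), finrank F (rt Λ))
    (fun p _ hp => if_neg fun h => hp (Prod.ext h.2.1.symm h.2.2.symm)) fun h => absurd (Finset.mem_product.2
      ⟨Finset.mem_range.2 ((Submodule.finrank_le _).trans_lt ha), Finset.mem_range.2 ((Submodule.finrank_le _).trans_lt hb)⟩) h]
  by_cases h1 : Lag Φ Φ' Λ
  · rw [if_pos (show Λ ∈ Cor Φ Φ' _ _ from ⟨h1, rfl, rfl⟩)]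
    split_ifs with h2
    · rfl
    · exact (wt_of_not fun h => h2 ⟨isLag_dbl.2 h1, h⟩).symm
  · rw [if_neg fun h => h1 (isLag_dbl.1 h.1), if_neg fun h => h1 h.1]

section inst

variable {Φ : Fm false F V} {Ψ : Fm true F W} {γ : ℂ} {S : Type} [AddCommGroup S] [Module ℂ S]

/-- the action of `Sp V` -/
noncomputable def aSx (O : Wo.Osc ψ Φ.B Ψ.Q γ S) : Φ.G →* End ℂ S where
  toFun g := O.A g.1
  map_one' := O.A_one
  map_mul' g g' := O.A_mul (isV g) (isV g')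

/-- the action of `O W` -/
noncomputable def aOx (O : Wo.Osc ψ Φ.B Ψ.Q γ S) : Ψ.G →* End ℂ S where
  toFun h := O.C h.1
  map_one' := O.C_one
  map_mul' h h' := O.C_mul (isW h) (isW h')

theorem exists_pt [FiniteDimensional F V] (O : Wo.Osc ψ Φ.B Ψ.Q γ S) (hχ : Wo.Gc ψ Ψ.Q χ) {N : ℕ} (fr : Fr Φ N) :
    ∃ P : Pt ψ Φ Ψ fr (fun g => wd χ Φ g (LinearMap.range fr.lam)) (V ⊗[F] W) S, P.A = aSx O ∧ P.C = aOx O := by
  have c := O.cx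
  have hL := orth_eq fr.isLag
  have h0 := itV_of_lag hL
  obtain ⟨s, hs⟩ : ∃ s, O.pV (LinearMap.range fr.lam) s ≠ 0 := not_forall.1 fun h => O.pV_ne _ (LinearMap.ext h)
  have hK : ItV Φ.B (LinearMap.range fr.kap) := by
    rintro _ ⟨a, rfl⟩ _ ⟨b, rfl⟩
    exact fr.kk a b
  refine ⟨⟨rfl, O.b, fun y y' => ?_, fun y => ?_, TensorProduct.mk F V W, tm Φ.B O.b, fun _ _ _ _ => tm_tmul _ _ _ _ _ _,
    O.e, O.e_mul, O.e_zero, aSx O, fun g => (ac g.1 1).toLinearMap, fun _ _ _ => rfl, fun g x => O.A_e (isV g) x, aOx O,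
    fun g h => O.A_comm_C (isV g) (isW h), fun h y => ?_, _, hs, fun a y => ?_, fun g hg => ?_, fun g hg => ?_, fun h => ?_,
    ?_⟩, rfl, rfl⟩
  · rw [← Ψ.og rfl, O.hb']
    simp [sg]
  · rw [O.hb]
    simp [kp]
  · refine (O.C_e (isW h) hK (Submodule.sum_mem _ fun i _ =>
      tmul_mem (LinearMap.mem_range_self _ _) Submodule.mem_top)).trans ?_
    rw [map_sum]
    rfl
  · exact LinearMap.congr_fun (O.e_pV h0 (tmul_mem (LinearMap.mem_range_self _ a) (Submodule.mem_top (x := y)))) s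
  · exact LinearMap.congr_fun (O.A_pL hχ hL (isV g) fun v hv => mem_of_map hg hv) s
  · rw [wd, dt_congr (g := 1) (by rintro _ ⟨a, rfl⟩; exact hg a), dt_one, map_one]
  · exact LinearMap.congr_fun (O.C_pL hL (isW h)) s
  · have h1 := O.dim
    rw [fr.d, pow_mul, c.sq] at h1
    exact_mod_cast h1

end inst

/-- **the Weil kernel**, `q` odd -/
noncomputable def tx (ψ : AddChar F ℂ) (Φ : Fm false F V) (Ψ : Fm true F W) (g : Φ.G) (h : Ψ.G) : ℂ :=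
  Wo.Th ψ Φ.B Ψ.Q g.1 h.1

variable [Finite F] [Finite V] [Finite V'] [Finite W] [Finite W']

/-- theta lift from `O W` to `Sp V` -/
noncomputable def txS (ψ : AddChar F ℂ) (Φ : Fm false F V) (Ψ : Fm true F W) : (Ψ.G → ℂ) →ₗ[ℂ] Φ.G → ℂ := ko (tx ψ Φ Ψ)

/-- its adjoint -/
noncomputable def txO (ψ : AddChar F ℂ) (Ψ : Fm true F W) (Φ : Fm false F V) : (Φ.G → ℂ) →ₗ[ℂ] Ψ.G → ℂ :=
  ko fun h g => starRingEnd ℂ (tx ψ Φ Ψ g h)

theorem txS_apply (Φ : Fm false F V) (Ψ : Fm true F W) (f : Ψ.G → ℂ) (g : Φ.G) :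
    txS ψ Φ Ψ f g = (Fintype.card Ψ.G : ℂ)⁻¹ * ∑ h, tx ψ Φ Ψ g h * f h := rfl

theorem txO_apply (Ψ : Fm true F W) (Φ : Fm false F V) (f : Φ.G → ℂ) (h : Ψ.G) :
    txO ψ Ψ Φ f h = (Fintype.card Φ.G : ℂ)⁻¹ * ∑ g, starRingEnd ℂ (tx ψ Φ Ψ g h) * f g := rfl

theorem txS_adj (Φ : Fm false F V) (Ψ : Fm true F W) (f : Ψ.G → ℂ) (φ : Φ.G → ℂ) :
    classInner (txS ψ Φ Ψ f) φ = classInner f (txO ψ Ψ Φ φ) := ko_adj _ _ _

theorem txO_adj (Φ : Fm false F V) (Ψ : Fm true F W) (f : Ψ.G → ℂ) (φ : Φ.G → ℂ) :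
    classInner (txO ψ Ψ Φ φ) f = classInner φ (txS ψ Φ Ψ f) := ko_adj' _ _ _

theorem ko_Kx {o : Bool} (Φ : Fm o F V) (Φ' : Fm o F V') (a b : ℕ) (f : Φ'.G → ℂ) :
    ko (fun g g' => ∑ i ∈ Finset.range a, ∑ j ∈ Finset.range b, Kx χ Φ Φ' i j g g') f =
      ∑ i ∈ Finset.range a, ∑ j ∈ Finset.range b, opx χ Φ Φ' i j f := by
  funext g
  simp only [ko_apply, Finset.sum_apply, opx_apply, ← Finset.mul_sum, Finset.sum_mul]
  rw [Finset.sum_comm]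
  exact congrArg _ (Finset.sum_congr rfl fun _ _ => Finset.sum_comm)

theorem qd_qc : Qd false (Wo.qc F) := Qd.sp fun _ h => Wo.qc_sq h

theorem ndQ (Ψ : Fm true F W) (w : W) (h : ∀ w', Ψ.Q.polarBilin w w' = 0) : w = 0 := Ψ.nd.1 w (by rw [← Ψ.og rfl]; exact h)

variable (hψ : ψ ≠ 1) (h2 : (2 : F) ≠ 0)
include hψ h2

theorem cxo (Φ : Fm false F V) (Ψ : Fm true F W) : Wo.Cx ψ Φ.B Ψ.Q (Real.sqrt (Nat.card W)) :=
  Wo.exists_cx hψ h2 (ndQ Ψ) (Φ.sp rfl).1 Φ.nd.1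

theorem gco (Ψ : Fm true F W) (hW : Odd (finrank F W)) : Wo.Gc ψ Ψ.Q (Wo.qc F) := Wo.gc_odd hψ h2 (ndQ Ψ) hW

theorem tx_even (Φ : Fm false F V) (Ψ : Fm true F W) (hW : Even (finrank F W)) (g : Φ.G) (h : Ψ.G) :
    tx ψ Φ Ψ g h = th ψ Φ Ψ g h := Wo.Th_even (cx hψ Φ Ψ hW) h2 (isV g) (isW h)

theorem tx_dblV (Φ : Fm false F V) (Φ' : Fm false F V') (Ψ : Fm true F W) (g : Φ.G) (g' : Φ'.G) (h : Ψ.G) :
    tx ψ (dbl Φ Φ') Ψ (pr g g') h = starRingEnd ℂ (tx ψ Φ Ψ g h) * tx ψ Φ' Ψ g' h := by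
  rw [tx, tx, tx, ← Wo.Th_negV (cxo hψ h2 Φ Ψ) (isV g) (isW h)]
  exact Wo.Th_sumV (LinearEquiv.refl F _) (fun v v' => by rw [dbl_B]; simp [sub_eq_neg_add]) (cxo hψ h2 Φ Ψ).negV
    (cxo hψ h2 Φ' Ψ) (isV g).neg (isV g') (fun _ => rfl) (isW h)

theorem tx_dblW (Φ : Fm false F V) (Ψ : Fm true F W) (Ψ' : Fm true F W') (g : Φ.G) (h : Ψ.G) (h' : Ψ'.G) :
    tx ψ Φ (dbl Ψ Ψ') g (pr h h') = starRingEnd ℂ (tx ψ Φ Ψ g h) * tx ψ Φ Ψ' g h' := by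
  rw [tx, tx, tx, ← Wo.Th_neg (cxo hψ h2 Φ Ψ) (isV g) (isW h)]
  exact Wo.Th_sumW (LinearEquiv.refl F _) (fun w => by rw [dbl_Q]; simp [sub_eq_neg_add]) (cxo hψ h2 Φ Ψ).neg
    (cxo hψ h2 Φ Ψ') (isW h).neg (isW h') (fun _ => rfl) (isV g)

omit hψ h2 in
theorem even_dbl (hW : Odd (finrank F W)) (hW' : Odd (finrank F W')) : Even (finrank F (W × W')) := by
  rw [finrank_prod]
  exact hW.add_odd hW'

theorem th_dbl_odd (Φ : Fm false F V) (Ψ : Fm true F W) (Ψ' : Fm true F W') (hW : Odd (finrank F W))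
    (hW' : Odd (finrank F W')) (g : Φ.G) (h : Ψ.G) (h' : Ψ'.G) :
    th ψ Φ (dbl Ψ Ψ') g (pr h h') = starRingEnd ℂ (tx ψ Φ Ψ g h) * tx ψ Φ Ψ' g h' := by
  rw [← tx_even hψ h2 _ _ (even_dbl hW hW'), tx_dblW hψ h2]

theorem exists_T (Φ : Fm false F V) (Ψ : Fm true F W) (hW : Odd (finrank F W)) {N : ℕ} (fr : Fr Φ N) :
    ∃ U : Submodule ℂ (V ⊗[F] W → ℂ), FiniteDimensional ℂ U ∧
      ∃ P : Pt ψ Φ Ψ fr (fun g => wd (Wo.qc F) Φ g (LinearMap.range fr.lam)) (V ⊗[F] W) U,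
        ∀ g h, trace ℂ U (P.A g * P.C h) = tx ψ Φ Ψ g h := by
  obtain ⟨U, ⟨O⟩⟩ := (cxo hψ h2 Φ Ψ).exists_osc
  obtain ⟨P, h1, h3⟩ := exists_pt O (gco hψ h2 Ψ hW) fr
  exact ⟨U, O.fin, P, fun g h => by rw [h1, h3]; exact O.tr_eq_Th (isV g) (isW h)⟩

/-- the sign character of `O W` does not occur if `dim V < dim W` -/
theorem sum_sgnx (Φ : Fm false F V) (Ψ : Fm true F W) (hW : Odd (finrank F W)) (hd : finrank F V < finrank F W) (g : Φ.G) :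
    ∑ h, (sgn Ψ h : ℂ) * tx ψ Φ Ψ g h = 0 := by
  obtain ⟨L, hL⟩ := exists_isLag Φ
  obtain ⟨fr, -⟩ := hL.exists_fr rfl
  obtain ⟨U, _, P, hP⟩ := exists_T hψ h2 Φ Ψ hW fr
  simpa only [sgn_inv, hP] using sum_eq_zero_of_eig P.C _ (P.eig_sgn hψ (fr.d ▸ hd)) (P.A g)

theorem spx_big_two (Φ : Fm false F V) (Ψ : Fm true F W) (Ψ' : Fm true F W') (hW : Odd (finrank F W))
    (hW' : Odd (finrank F W')) (hd : finrank F W + finrank F W' = finrank F V) (hn : ¬ WE Ψ Ψ') (g : Φ.G) :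
    (Fintype.card Ψ.G : ℂ)⁻¹ * ∑ h, tx ψ Φ Ψ g h + (Fintype.card Ψ'.G : ℂ)⁻¹ * ∑ h, tx ψ Φ Ψ' g h =
      wLag Φ (wd (Wo.qc F) Φ) g := by
  obtain ⟨L, hL⟩ := exists_isLag Φ
  obtain ⟨fr, -⟩ := hL.exists_fr rfl
  obtain ⟨U, _, P, hP⟩ := exists_T hψ h2 Φ Ψ hW fr
  obtain ⟨U', _, P', hP'⟩ := exists_T hψ h2 Φ Ψ' hW' fr
  obtain ⟨T, hT, h⟩ := ts_odd Ψ hW
  obtain ⟨T', hT', h'⟩ := ts_odd Ψ' hW'
  have h1 := fr.d
  have h3 := gt_two hψ P P' (wd_hw fr) (B_of_Q Ψ hT) hT (B_of_Q Ψ' hT') hT' (by omega) (by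
    simp only [Pt.R, hP, hP']
    have h4 := orth_of (tx ψ Φ Ψ) (tx ψ Φ Ψ') (fun _ => 1) (Fintype.card Ψ.G : ℂ)⁻¹ (Fintype.card Ψ'.G : ℂ)⁻¹ fun h h' => by
      rw [← sum_sp hψ Φ (dbl Ψ' Ψ) (even_dbl hW' hW) (by rw [finrank_prod]; omega)
        (fun ⟨Λ, hΛ⟩ => hn (WE.symm ⟨Λ, isLag_dbl.1 hΛ⟩)) (pr h' h)]
      exact Finset.sum_congr rfl fun g _ => by rw [th_dbl_odd hψ h2 Φ Ψ' Ψ hW' hW, mul_comm, one_mul]
    simpa only [one_mul] using h4) g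
  simpa only [Pt.R, hP, hP'] using h3

theorem spx_big_one (Φ : Fm false F V) (Ψ : Fm true F W) (hW : Odd (finrank F W)) (hd : finrank F V < finrank F W)
    (g : Φ.G) : (Fintype.card Ψ.G : ℂ)⁻¹ * ∑ h, tx ψ Φ Ψ g h = wLag Φ (wd (Wo.qc F) Φ) g := by
  obtain ⟨L, hL⟩ := exists_isLag Φ
  obtain ⟨fr, -⟩ := hL.exists_fr rfl
  obtain ⟨U, _, P, hP⟩ := exists_T hψ h2 Φ Ψ hW fr
  obtain ⟨T, hT, h⟩ := ts_odd Ψ hW
  have h1 := fr.d
  simpa only [Pt.R, hP] using gt_one hψ P (wd_hw fr) (B_of_Q Ψ hT) hT (by omega) g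

variable {W₁ V₁ : Type} [AddCommGroup W₁] [Module F W₁] [Finite W₁] [AddCommGroup V₁] [Module F V₁] [Finite V₁] {a b : ℕ}

omit hψ h2 in
theorem wLag_sw {o : Bool} {Φ : Fm o F V} {Φ' : Fm o F V'} (g : Φ.G) (g' : Φ'.G) (ha : finrank F V < a)
    (hb : finrank F V' < b) :
    wLag (dbl Φ' Φ) (wd χ _) (pr g' g) = ∑ i ∈ Finset.range a, ∑ j ∈ Finset.range b, Kx χ Φ Φ' i j g g' := by
  rw [wLag_pr g' g hb ha, Finset.sum_comm]
  exact Finset.sum_congr rfl fun i _ => Finset.sum_congr rfl fun j _ => (Kx_sw i j g g').symm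

/-- **(G4), symplectic side, two terms** -/
theorem spx_two (Φ : Fm false F V) (Φ' : Fm false F V') (Ψ : Fm true F W) (Ψ₁ : Fm true F W₁) (hW : Odd (finrank F W))
    (hW₁ : Odd (finrank F W₁)) (hd : finrank F W + finrank F W₁ = finrank F V + finrank F V') (hn : ¬ WE Ψ Ψ₁)
    (ha : finrank F V < a) (hb : finrank F V' < b) (f : Φ'.G → ℂ) :
    txS ψ Φ Ψ (txO ψ Ψ Φ' f) + txS ψ Φ Ψ₁ (txO ψ Ψ₁ Φ' f) =
      ∑ i ∈ Finset.range a, ∑ j ∈ Finset.range b, opx (Wo.qc F) Φ Φ' i j f := by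
  rw [txS, txS, txO, txO, ko_ko, ko_ko, ko_add, ← ko_Kx]
  refine congrArg (fun κ => ko κ f) (funext₂ fun g g' => ?_)
  have h := spx_big_two hψ h2 (dbl Φ' Φ) Ψ Ψ₁ hW hW₁ (by rw [finrank_prod]; omega) hn (pr g' g)
  simpa only [tx_dblV hψ h2 Φ' Φ, wLag_sw g g' ha hb, mul_comm (starRingEnd ℂ _)] using h

/-- **(G4), symplectic side, one term** -/
theorem spx_one (Φ : Fm false F V) (Φ' : Fm false F V') (Ψ : Fm true F W) (hW : Odd (finrank F W))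
    (hd : finrank F V + finrank F V' < finrank F W) (ha : finrank F V < a) (hb : finrank F V' < b) (f : Φ'.G → ℂ) :
    txS ψ Φ Ψ (txO ψ Ψ Φ' f) = ∑ i ∈ Finset.range a, ∑ j ∈ Finset.range b, opx (Wo.qc F) Φ Φ' i j f := by
  rw [txS, txO, ko_ko, ← ko_Kx]
  refine congrArg (fun κ => ko κ f) (funext₂ fun g g' => ?_)
  have h := spx_big_one hψ h2 (dbl Φ' Φ) Ψ hW (by rw [finrank_prod]; omega) (pr g' g)
  simpa only [tx_dblV hψ h2 Φ' Φ, wLag_sw g g' ha hb, mul_comm (starRingEnd ℂ _)] using h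

/-- **(G4), orthogonal side, two terms** -/
theorem ox_two (Ψ : Fm true F W) (Ψ' : Fm true F W') (Φ : Fm false F V) (Φ₁ : Fm false F V₁) (hW : Odd (finrank F W))
    (hW' : Odd (finrank F W')) (he : WE Ψ Ψ') (hd : finrank F V + finrank F V₁ + 2 = finrank F W + finrank F W')
    (ha : finrank F W < a) (hb : finrank F W' < b) (f : Ψ'.G → ℂ) :
    txO ψ Ψ Φ (txS ψ Φ Ψ' f) + sgM Ψ (txO ψ Ψ Φ₁ (txS ψ Φ₁ Ψ' (sgM Ψ' f))) =
      ∑ i ∈ Finset.range a, ∑ j ∈ Finset.range b, op Ψ Ψ' i j f := by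
  rw [txS, txS, txO, txO, ko_ko, ko_ko, sgM_ko, ko_add, ← ko_K]
  refine congrArg (fun κ => ko κ f) (funext₂ fun h h' => ?_)
  obtain ⟨Λ, hΛ⟩ := he
  have h1 := o_big_two hψ (dbl Ψ Ψ') Φ Φ₁ (isLag_dbl.2 hΛ) (by rw [finrank_prod]; omega) (pr h h')
  simpa only [th_dbl_odd hψ h2 _ Ψ Ψ' hW hW', nLag_pr h h' ha hb, Nat.cast_sum, sgn_pr, Units.val_mul] using h1

/-- **(G4), orthogonal side, one term** -/
theorem ox_one (Ψ : Fm true F W) (Ψ' : Fm true F W') (Φ : Fm false F V) (hW : Odd (finrank F W))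
    (hW' : Odd (finrank F W')) (he : WE Ψ Ψ') (hd : finrank F W + finrank F W' ≤ finrank F V)
    (ha : finrank F W < a) (hb : finrank F W' < b) (f : Ψ'.G → ℂ) :
    txO ψ Ψ Φ (txS ψ Φ Ψ' f) = ∑ i ∈ Finset.range a, ∑ j ∈ Finset.range b, op Ψ Ψ' i j f := by
  rw [txS, txO, ko_ko, ← ko_K]
  refine congrArg (fun κ => ko κ f) (funext₂ fun h h' => ?_)
  obtain ⟨Λ, hΛ⟩ := he
  have h1 := o_big_one hψ (dbl Ψ Ψ') Φ (isLag_dbl.2 hΛ) (by rw [finrank_prod]; omega) (pr h h')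
  simpa only [th_dbl_odd hψ h2 _ Ψ Ψ' hW hW', nLag_pr h h' ha hb, Nat.cast_sum] using h1

/-- **(G5)** spaces of different types -/
theorem zerox_o (Φ : Fm false F V) (Ψ : Fm true F W) (Ψ' : Fm true F W') (hW : Odd (finrank F W))
    (hW' : Odd (finrank F W')) (hn : ¬ WE Ψ Ψ') (hd : finrank F W + finrank F W' ≤ finrank F V) (f : Ψ'.G → ℂ) :
    txO ψ Ψ Φ (txS ψ Φ Ψ' f) = 0 := by
  have h1 : ∀ h h', ∑ g, starRingEnd ℂ (tx ψ Φ Ψ g h) * tx ψ Φ Ψ' g h' = 0 := fun h h' => by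
    simpa only [th_dbl_odd hψ h2 Φ Ψ Ψ' hW hW'] using sum_sp hψ Φ (dbl Ψ Ψ') (even_dbl hW hW')
      (by rw [finrank_prod]; exact hd) (fun ⟨Λ, hΛ⟩ => hn ⟨Λ, isLag_dbl.1 hΛ⟩) (pr h h')
  rw [txS, txO, ko_ko]
  funext h
  simp [ko_apply, h1]

/-- **(G5)** the sign character -/
theorem zerox_sp (Φ : Fm false F V) (Φ' : Fm false F V') (Ψ : Fm true F W) (hW : Odd (finrank F W))
    (hd : finrank F V + finrank F V' < finrank F W) (f : Φ'.G → ℂ) : txS ψ Φ Ψ (sgM Ψ (txO ψ Ψ Φ' f)) = 0 := by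
  have h0 : ∀ g g', ∑ h, tx ψ Φ Ψ g h * (sgn Ψ h * starRingEnd ℂ (tx ψ Φ' Ψ g' h)) = 0 := fun g g' => by
    rw [← sum_sgnx hψ h2 (dbl Φ' Φ) Ψ hW (by rw [finrank_prod]; omega) (pr g' g)]
    exact Finset.sum_congr rfl fun h _ => by rw [tx_dblV hψ h2 Φ' Φ Ψ]; ring
  have h1 : sgM Ψ (txO ψ Ψ Φ' f) = ko (fun h g' => sgn Ψ h * starRingEnd ℂ (tx ψ Φ' Ψ g' h)) f := by
    funext h
    simp only [sgM_apply, txO_apply, ko_apply, Finset.mul_sum]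
    exact Finset.sum_congr rfl fun _ _ => by ring
  rw [h1, txS, ko_ko]
  funext g
  simp [ko_apply, h0]

/-- the vacuum -/
theorem txS_sgn (Φ : Fm false F V) (Ψ : Fm true F W) (hW : Odd (finrank F W)) (hd : finrank F V < finrank F W) :
    txS ψ Φ Ψ (sgM Ψ 1) = 0 := by
  funext g
  rw [txS_apply, Finset.sum_congr rfl fun h _ => by rw [sgM_apply, Pi.one_apply, mul_one, mul_comm],
    sum_sgnx hψ h2 Φ Ψ hW hd, mul_zero, Pi.zero_apply]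

/-! ### characters -/

variable (Φ : Fm false F V) (Ψ : Fm true F W)

theorem tx_char : IsCharacter (Φ.G × Ψ.G) fun p => tx ψ Φ Ψ p.1 p.2 :=
  Wo.isCharacter_Th (Γ := Φ.G × Ψ.G) (cxo hψ h2 Φ Ψ) (Φ.G.subtype.comp (MonoidHom.fst Φ.G Ψ.G))
    (Ψ.G.subtype.comp (MonoidHom.snd Φ.G Ψ.G)) (fun y => isV y.1) fun y => isW y.2

theorem tx_conj (g x : Φ.G) (h y : Ψ.G) : tx ψ Φ Ψ (x * g * x⁻¹) (y * h * y⁻¹) = tx ψ Φ Ψ g h :=
  gen_isClassFunction (gen_of_char (tx_char hψ h2 Φ Ψ)) (g, h) (x, y)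

theorem tx_inv (g : Φ.G) (h : Ψ.G) : tx ψ Φ Ψ g⁻¹ h⁻¹ = starRingEnd ℂ (tx ψ Φ Ψ g h) :=
  gen_apply_inv (gen_of_char (tx_char hψ h2 Φ Ψ)) (g, h)

theorem txS_gen {f : Ψ.G → ℂ} (hf : IsGeneralizedCharacter Ψ.G f) : IsGeneralizedCharacter Φ.G (txS ψ Φ Ψ f) :=
  ko_gen (gen_of_char (tx_char hψ h2 Φ Ψ)) hf

theorem txO_gen {f : Φ.G → ℂ} (hf : IsGeneralizedCharacter Φ.G f) : IsGeneralizedCharacter Ψ.G (txO ψ Ψ Φ f) :=
  ko_gen (gen_comp (MulEquiv.prodComm : Ψ.G × Φ.G ≃* Φ.G × Ψ.G).toMonoidHom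
    (gen_conjFun (gen_of_char (tx_char hψ h2 Φ Ψ)))) hf

theorem txS_cls (f : Ψ.G → ℂ) : IsClassFunction Φ.G (txS ψ Φ Ψ f) :=
  ko_cls (fun a x b => by simpa using tx_conj hψ h2 Φ Ψ a x b 1) f

theorem txO_cls (f : Φ.G → ℂ) : IsClassFunction Ψ.G (txO ψ Ψ Φ f) :=
  ko_cls (fun a x b => congrArg _ (by simpa using tx_conj hψ h2 Φ Ψ b 1 a x)) f

end Cfsg.Agent.PQ.G4
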