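import Cfsg.Agent.PQ.G4.Fin
import Cfsg.Agent.PQ.Mk.Alg
import Cfsg.Agent.Characters.Linear

/-!
# The theta operators: characters, adjoints, the sign character, transport
-/

set_option autoImplicit false
set_option linter.unusedSectionVars false

namespace Cfsg.Agent.PQ.G4

open Module Cfsg Cfsg.Agent.PQ.Mk Cfsg.Agent.PQ.Wl Cfsg.Agent.OddOrderCharacters.VChar

section ko

variable {A B : Type} [Group A] [Fintype A] [Group B] [Fintype B]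

theorem ko_gen {κ : A → B → ℂ} (hκ : IsGeneralizedCharacter (A × B) fun p => κ p.1 p.2) {f : B → ℂ}
    (hf : IsGeneralizedCharacter B f) : IsGeneralizedCharacter A (ko κ f) := gen_kernel hκ hf

theorem ko_cls {κ : A → B → ℂ} (hκ : ∀ a x b, κ (x * a * x⁻¹) b = κ a b) (f : B → ℂ) : IsClassFunction A (ko κ f) :=
  fun a x => by simp only [ko_apply, hκ]

theorem ko_adj (κ : A → B → ℂ) (f : B → ℂ) (φ : A → ℂ) :
    classInner (ko κ f) φ = classInner f (ko (fun b a => starRingEnd ℂ (κ a b)) φ) := by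
  simp only [classInner, ko_apply, Nat.card_eq_fintype_card, Finset.mul_sum, Finset.sum_mul, map_sum, map_mul, map_inv₀,
    map_natCast, Complex.conj_conj]
  rw [Finset.sum_comm]
  exact Finset.sum_congr rfl fun _ _ => Finset.sum_congr rfl fun _ _ => by ring

theorem ko_adj' (κ : A → B → ℂ) (f : B → ℂ) (φ : A → ℂ) :
    classInner (ko (fun b a => starRingEnd ℂ (κ a b)) φ) f = classInner φ (ko κ f) := by
  rw [ko_adj]
  simp only [Complex.conj_conj]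

end ko

variable {F V V' W W' : Type} [Field F] [AddCommGroup V] [Module F V] [AddCommGroup V'] [Module F V'] [AddCommGroup W]
  [Module F W] [AddCommGroup W'] [Module F W'] {ψ : AddChar F ℂ}
  [Finite F] [Finite V] [Finite V'] [Finite W] [Finite W']

/-! ### the sign character -/

theorem sgn_gen (Ψ : Fm true F W) : IsGeneralizedCharacter Ψ.G fun h => (sgn Ψ h : ℂ) := gen_of_char (Characters.Linear.isCharacter_hom _)

theorem sgM_gen (Ψ : Fm true F W) {f : Ψ.G → ℂ} (hf : IsGeneralizedCharacter Ψ.G f) :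
    IsGeneralizedCharacter Ψ.G (sgM Ψ f) := gen_mul (sgn_gen Ψ) hf

theorem sgM_cls (Ψ : Fm true F W) {f : Ψ.G → ℂ} (hf : IsClassFunction Ψ.G f) : IsClassFunction Ψ.G (sgM Ψ f) := fun h x => by
  rw [sgM_apply, sgM_apply, hf h x]
  exact congrArg (· * f h) (gen_isClassFunction (sgn_gen Ψ) h x)

theorem sgM_sgM (Ψ : Fm true F W) (f : Ψ.G → ℂ) : sgM Ψ (sgM Ψ f) = f := by
  funext h
  rw [sgM_apply, sgM_apply, ← mul_assoc, sgn_sq, one_mul]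

theorem sgM_adj (Ψ : Fm true F W) (f φ : Ψ.G → ℂ) : classInner (sgM Ψ f) φ = classInner f (sgM Ψ φ) := by
  simp only [classInner, sgM_apply, map_mul, conj_sgn]
  exact congrArg _ (Finset.sum_congr rfl fun _ _ => by ring)

theorem sgn_of_act {Ψ : Fm true F W} {Ψ' : Fm true F W'} {Λ : Submodule F (W × W')} (hΛ : Lag Ψ Ψ' Λ) {h : Ψ.G} {h' : Ψ'.G}
    (e : act h.1 h'.1 Λ = Λ) : sgn Ψ h = sgn Ψ' h' := by
  have h1 := sgn_stab (isLag_dbl.2 hΛ) (pr h h') e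
  rw [sgn_pr, mul_eq_one_iff_eq_inv, ← map_inv, sgn_inv] at h1
  exact h1

theorem sgn_K (Ψ : Fm true F W) (Ψ' : Fm true F W') (i j : ℕ) (h : Ψ.G) (h' : Ψ'.G) :
    (sgn Ψ h : ℂ) * K Ψ Ψ' i j h h' = K Ψ Ψ' i j h h' * sgn Ψ' h' := by
  rcases Set.eq_empty_or_nonempty {Λ | Λ ∈ Cor Ψ Ψ' i j ∧ act h.1 h'.1 Λ = Λ} with h0 | ⟨Λ, h1, h2⟩
  · simp [K, h0]
  · rw [sgn_of_act h1.1 h2, mul_comm]

/-- the sign character commutes with the correspondences -/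
theorem sgM_op (Ψ : Fm true F W) (Ψ' : Fm true F W') (i j : ℕ) (f : Ψ'.G → ℂ) :
    sgM Ψ (op Ψ Ψ' i j f) = op Ψ Ψ' i j (sgM Ψ' f) := by
  funext h
  rw [sgM_apply, op_apply, op_apply, mul_left_comm, Finset.mul_sum]
  exact congrArg _ (Finset.sum_congr rfl fun h' _ => by rw [sgM_apply, ← mul_assoc, sgn_K, mul_assoc])

/-! ### the Weil kernel -/

theorem thS_adj (Φ : Fm false F V) (Ψ : Fm true F W) (f : Ψ.G → ℂ) (φ : Φ.G → ℂ) :
    classInner (thS ψ Φ Ψ f) φ = classInner f (thO ψ Ψ Φ φ) := ko_adj _ _ _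

theorem thO_adj (Φ : Fm false F V) (Ψ : Fm true F W) (f : Ψ.G → ℂ) (φ : Φ.G → ℂ) :
    classInner (thO ψ Ψ Φ φ) f = classInner φ (thS ψ Φ Ψ f) := ko_adj' _ _ _

variable (hψ : ψ ≠ 1) (Φ : Fm false F V) (Ψ : Fm true F W) (hW : Even (finrank F W))
include hψ hW

theorem th_char : IsCharacter (Φ.G × Ψ.G) fun p => th ψ Φ Ψ p.1 p.2 :=
  isCharacter_Th (Γ := Φ.G × Ψ.G) (cx hψ Φ Ψ hW) (Φ.G.subtype.comp (MonoidHom.fst Φ.G Ψ.G))
    (Ψ.G.subtype.comp (MonoidHom.snd Φ.G Ψ.G)) (fun y => isV y.1) fun y => isW y.2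

theorem th_conj (g x : Φ.G) (h y : Ψ.G) : th ψ Φ Ψ (x * g * x⁻¹) (y * h * y⁻¹) = th ψ Φ Ψ g h :=
  gen_isClassFunction (gen_of_char (th_char hψ Φ Ψ hW)) (g, h) (x, y)

theorem th_inv (g : Φ.G) (h : Ψ.G) : th ψ Φ Ψ g⁻¹ h⁻¹ = starRingEnd ℂ (th ψ Φ Ψ g h) :=
  gen_apply_inv (gen_of_char (th_char hψ Φ Ψ hW)) (g, h)

theorem thS_gen {f : Ψ.G → ℂ} (hf : IsGeneralizedCharacter Ψ.G f) : IsGeneralizedCharacter Φ.G (thS ψ Φ Ψ f) :=
  ko_gen (gen_of_char (th_char hψ Φ Ψ hW)) hf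

theorem thO_gen {f : Φ.G → ℂ} (hf : IsGeneralizedCharacter Φ.G f) : IsGeneralizedCharacter Ψ.G (thO ψ Ψ Φ f) :=
  ko_gen (gen_comp (MulEquiv.prodComm : Ψ.G × Φ.G ≃* Φ.G × Ψ.G).toMonoidHom
    (gen_conjFun (gen_of_char (th_char hψ Φ Ψ hW)))) hf

theorem thS_cls (f : Ψ.G → ℂ) : IsClassFunction Φ.G (thS ψ Φ Ψ f) :=
  ko_cls (fun a x b => by simpa using th_conj hψ Φ Ψ hW a x b 1) f

theorem thO_cls (f : Φ.G → ℂ) : IsClassFunction Ψ.G (thO ψ Ψ Φ f) :=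
  ko_cls (fun a x b => congrArg _ (by simpa using th_conj hψ Φ Ψ hW b 1 a x)) f

/-! ### (G5) : vanishing -/

variable (Φ' : Fm false F V') (Ψ' : Fm true F W')

theorem ker_zero_o (hW' : Even (finrank F W')) (hn : ¬ WE Ψ Ψ') (hd : finrank F W + finrank F W' ≤ finrank F V) (h : Ψ.G)
    (h' : Ψ'.G) : ∑ g, starRingEnd ℂ (th ψ Φ Ψ g h) * th ψ Φ Ψ' g h' = 0 := by
  simpa only [th_dblW hψ Φ Ψ Ψ' hW hW'] using sum_sp hψ Φ (dbl Ψ Ψ') (by rw [finrank_prod]; exact hW.add hW')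
    (by rw [finrank_prod]; exact hd) (fun ⟨Λ, hΛ⟩ => hn ⟨Λ, isLag_dbl.1 hΛ⟩) (pr h h')

theorem ker_zero_sp (hd : finrank F V + finrank F V' < finrank F W) (g : Φ.G) (g' : Φ'.G) :
    ∑ h, th ψ Φ Ψ g h * (sgn Ψ h * starRingEnd ℂ (th ψ Φ' Ψ g' h)) = 0 := by
  rw [← sum_sgn hψ (dbl Φ' Φ) Ψ hW (by rw [finrank_prod]; omega) (pr g' g)]
  exact Finset.sum_congr rfl fun h _ => by rw [th_dblV hψ Φ' Φ Ψ hW]; ring

/-- **(G5)** spaces of different types -/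
theorem zero_o (hW' : Even (finrank F W')) (hn : ¬ WE Ψ Ψ') (hd : finrank F W + finrank F W' ≤ finrank F V) (f : Ψ'.G → ℂ) :
    thO ψ Ψ Φ (thS ψ Φ Ψ' f) = 0 := by
  rw [thS, thO, ko_ko]
  funext h
  simp [ko_apply, ker_zero_o hψ Φ Ψ hW Ψ' hW' hn hd]

/-- **(G5)** the sign character -/
theorem zero_sp (hd : finrank F V + finrank F V' < finrank F W) (f : Φ'.G → ℂ) :
    thS ψ Φ Ψ (sgM Ψ (thO ψ Ψ Φ' f)) = 0 := by
  have h1 : sgM Ψ (thO ψ Ψ Φ' f) = ko (fun h g' => sgn Ψ h * starRingEnd ℂ (th ψ Φ' Ψ g' h)) f := by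
    funext h
    simp only [sgM_apply, thO_apply, ko_apply, Finset.mul_sum]
    exact Finset.sum_congr rfl fun _ _ => by ring
  rw [h1, thS, ko_ko]
  funext g
  simp [ko_apply, ker_zero_sp hψ Φ Ψ hW Φ' hd]

end Cfsg.Agent.PQ.G4
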